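import Cfsg.Agent.Lib.Helper70.OPar.Defs
import Cfsg.Agent.Lib.Helper99.NdGeom

/-!
# OPAR project (S5989), package [INV2]

An isometry `x` with `x * x = -1` has only even-dimensional invariant nondegenerate subspaces:
`β(u, v) = B(u, x v)` is an alternating form, nondegenerate on every such subspace.
-/

set_option autoImplicit false
open Matrix

namespace Cfsg.Agent.Lib.Helper34.OPar

open Cfsg.Agent.Lib.Helper23.OHyp Cfsg.Agent.Lib.Helper70.OPar

universe u

theorem pkgInv2 : PkgInv2.{u} := by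
  intro F _ ι _ _ Q hQ h2 x hisom hxx W hinv hnd
  have hbl := hQ.polar_bilinear
  have hpol : ∀ u v : ι → F, QuadraticMap.polar Q (x *ᵥ u) (x *ᵥ v) = QuadraticMap.polar Q u v := by
    intro u v
    unfold QuadraticMap.polar
    rw [← Matrix.mulVec_add, hisom, hisom, hisom]
  have hxxv : ∀ v : ι → F, x *ᵥ (x *ᵥ v) = -v := by
    intro v
    rw [Matrix.mulVec_mulVec, hxx, Matrix.neg_mulVec, Matrix.one_mulVec]
  have hnegr : ∀ u v : ι → F, QuadraticMap.polar Q u (-v) = -QuadraticMap.polar Q u v := by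
    intro u v
    have h := hbl.smul_right (-1) u v
    rw [neg_one_smul, neg_one_mul] at h
    exact h
  let Bx : LinearMap.BilinForm F (ι → F) :=
    LinearMap.mk₂ F (fun u v => QuadraticMap.polar Q u (x *ᵥ v))
      (fun u u' v => hbl.add_left u u' _)
      (fun c u v => by rw [hbl.smul_left, smul_eq_mul])
      (fun u v v' => by rw [Matrix.mulVec_add, hbl.add_right])
      (fun c u v => by rw [Matrix.mulVec_smul, hbl.smul_right, smul_eq_mul])
  have hBx : ∀ u v : ι → F, Bx u v = QuadraticMap.polar Q u (x *ᵥ v) := fun u v => rfl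
  have hA : ∀ u : ι → F, Bx u u = 0 := by
    intro u
    rw [hBx]
    have h1 : QuadraticMap.polar Q u (x *ᵥ u) = -QuadraticMap.polar Q u (x *ᵥ u) := by
      calc QuadraticMap.polar Q u (x *ᵥ u)
          = QuadraticMap.polar Q (x *ᵥ u) (x *ᵥ (x *ᵥ u)) := (hpol u (x *ᵥ u)).symm
        _ = QuadraticMap.polar Q (x *ᵥ u) (-u) := by rw [hxxv]
        _ = -QuadraticMap.polar Q (x *ᵥ u) u := hnegr _ _
        _ = -QuadraticMap.polar Q u (x *ᵥ u) := by rw [QuadraticMap.polar_comm]
    have h3 : (2 : F) * QuadraticMap.polar Q u (x *ᵥ u) = 0 := by linear_combination h1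
    rcases mul_eq_zero.mp h3 with h4 | h4
    · exact absurd h4 h2
    · exact h4
  have hxW : ∀ w ∈ W, x *ᵥ w ∈ W := fun w hw =>
    hinv (Submodule.mem_map.mpr ⟨w, hw, Matrix.toLin'_apply x w⟩)
  have hNg : Cfsg.Agent.Lib.Helper99.NgNd Bx W := by
    intro u hu h
    by_contra hne
    obtain ⟨-, w, hw, hwne⟩ := hnd u hu hne
    apply hwne
    have h1 := h (-(x *ᵥ w)) (W.neg_mem (hxW w hw))
    rw [hBx, Matrix.mulVec_neg, hxxv, neg_neg] at h1
    exact h1
  exact Cfsg.Agent.Lib.Helper99.ng_even Bx hA (Module.finrank F W) W hNg rfl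

end Cfsg.Agent.Lib.Helper34.OPar
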